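import Mathlib
import Cfsg.Agent.PermPrimes.JordanCycle
import Cfsg.Agent.PermPrimes.Tools
import Cfsg.Agent.S4219

/-!
Miller's transitivity bound in degree `k p + r`.
-/

set_option autoImplicit false

namespace CfsgLib.PermPrimes.KPR

open Equiv Equiv.Perm MulAction
open scoped commutatorElement

/-! ### Small facts -/

theorem fin_three_comm : ∀ σ : Perm (Fin 3), σ ≠ 1 →
    ∃ τ : Perm (Fin 3), (τ * σ * τ⁻¹ * σ⁻¹).support.card = 3 := by decide +kernel

theorem fin_four_comm : ∀ σ : Perm (Fin 4), σ ≠ 1 →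
    ∃ τ : Perm (Fin 4), (τ * σ * τ⁻¹ * σ⁻¹).support.card = 3 ∨
      ((τ * σ * τ⁻¹ * σ⁻¹).support.card = 4 ∧ (τ * σ * τ⁻¹ * σ⁻¹) ^ 2 = 1) := by decide +kernel

theorem fin_four_three : ∀ σ : Perm (Fin 4), σ.support.card = 3 →
    ∃ τ : Perm (Fin 4),
      (τ * σ * τ⁻¹ * σ⁻¹).support.card = 4 ∧ (τ * σ * τ⁻¹ * σ⁻¹) ^ 2 = 1 := by decide +kernel

/-- The three-cycle `(a c b)`. -/
def cyc5 (a b c : Fin 5) : Perm (Fin 5) := swap a b * swap a c

theorem fin_five_comm :
    (⁅⁅cyc5 0 1 2, cyc5 0 3 4⁆, ⁅cyc5 1 2 3, cyc5 1 0 4⁆⁆).support.card = 3 := by decide +kernel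

/-- Two three-cycles on `Fin 9`. -/
def y9 : Perm (Fin 9) := c[(0 : Fin 9), 1, 2] * c[(3 : Fin 9), 4, 5]

/-- A conjugate with two prescribed moved points. -/
def z9 (v w : Fin 9) : Perm (Fin 9) := swap 0 v * swap 0 1 * (swap 3 w * swap 3 5)

/-- The short words. -/
abbrev Good9 (f : Perm (Fin 9)) : Prop :=
  f.support.card = 3 ∨ (f.support.card = 5 ∧ f ^ 5 = 1) ∨ (f.support.card = 4 ∧ f ^ 2 = 1)

theorem nine_words : ∀ v w : Fin 9, v ≠ 0 → v ≠ 1 → v ≠ 3 → v ≠ 5 → w ≠ 0 → w ≠ 1 → w ≠ 3 → w ≠ 5 →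
    v ≠ w → Good9 (y9 * z9 v w) ∨ Good9 (y9 * (z9 v w)⁻¹) ∨ Good9 ((y9 * z9 v w) ^ 2) := by
  decide +kernel

theorem y9_cycleType : y9.cycleType = {3, 3} := by decide +kernel

variable {α : Type*} [Fintype α] [DecidableEq α]

/-- A permutation which is `σ` on the image of `E` and the identity elsewhere. -/
theorem cycleType_eq_of_apply {m : ℕ} (E : Fin m ↪ α) {f : Perm α} {σ : Perm (Fin m)}
    (h₁ : ∀ i, f (E i) = E (σ i)) (h₂ : ∀ a, a ∉ Set.range E → f a = a) :
    f.cycleType = σ.cycleType := by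
  classical
  have he : f = σ.extendDomain (ofInjective E E.injective) := by
    ext a
    by_cases ha : a ∈ Set.range E
    · obtain ⟨i, rfl⟩ := ha
      rw [h₁]
      exact (extendDomain_apply_image σ (ofInjective E E.injective) i).symm
    · rw [h₂ a ha]
      exact (extendDomain_apply_not_subtype σ (ofInjective E E.injective) ha).symm
  rw [he, cycleType_extendDomain]

theorem support_card_eq_of_apply {m : ℕ} (E : Fin m ↪ α) {f : Perm α} {σ : Perm (Fin m)}
    (h₁ : ∀ i, f (E i) = E (σ i)) (h₂ : ∀ a, a ∉ Set.range E → f a = a) :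
    f.support.card = σ.support.card := by
  rw [← sum_cycleType, ← sum_cycleType, cycleType_eq_of_apply E h₁ h₂]

theorem isPreprimitive_of_multiply {G : Subgroup (Perm α)} {m : ℕ}
    (hG : IsMultiplyPretransitive G α m) (h2 : 2 ≤ m) (hm : m ≤ Fintype.card α) :
    IsPreprimitive G α := by
  haveI := hG
  haveI := isMultiplyPretransitive_of_le (G := G) (α := α) h2 (by rwa [Nat.card_eq_fintype_card])
  exact isPreprimitive_of_is_two_pretransitive this

/-- An involution on four points in a four transitive group of degree at least five. -/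
theorem alternating_of_four_involution (G : Subgroup (Perm α))
    (hG : IsMultiplyPretransitive G α 4) (hn : 5 ≤ Fintype.card α) {f : Perm α} (hf : f ∈ G)
    (h4 : f.support.card = 4) (h2 : f ^ 2 = 1) : alternatingGroup α ≤ G := by
  have hinv : ∀ a, f (f a) = a := fun a => by
    rw [← Perm.mul_apply, ← pow_two, h2, Perm.one_apply]
  obtain ⟨a, ha⟩ := Finset.card_pos.1 (show 0 < f.support.card by omega)
  obtain ⟨c, hc, hc'⟩ := Finset.exists_mem_notMem_of_card_lt_card
    (show ({a, f a} : Finset α).card < f.support.card from Finset.card_le_two.trans_lt (by omega))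
  rw [Finset.mem_insert, Finset.mem_singleton, not_or] at hc'
  have hab : f a ≠ a := mem_support.1 ha
  have hcd : f c ≠ c := mem_support.1 hc
  have hac : f c ≠ a := fun h => hc'.2 (by rw [← h, hinv])
  have hbc : f c ≠ f a := fun h => hc'.1 (f.injective h)
  have hsupp : f.support = {a, f a, c, f c} := by
    refine (Finset.eq_of_subset_of_card_le ?_ ?_).symm
    · intro z hz
      simp only [Finset.mem_insert, Finset.mem_singleton] at hz
      rcases hz with rfl | rfl | rfl | rfl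
      · exact ha
      · exact apply_mem_support.2 ha
      · exact hc
      · exact apply_mem_support.2 hc
    · rw [h4, Finset.card_insert_of_notMem (by simp [hab.symm, Ne.symm hc'.1, hac.symm]),
        Finset.card_insert_of_notMem (by simp [Ne.symm hc'.2, hbc.symm]), Finset.card_pair hcd.symm]
  obtain ⟨e, -, he⟩ := Finset.exists_mem_notMem_of_card_lt_card
    (show f.support.card < (Finset.univ : Finset α).card by rw [Finset.card_univ]; omega)
  have hfe : f e = e := notMem_support.1 he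
  rw [hsupp] at he
  simp only [Finset.mem_insert, Finset.mem_singleton, not_or] at he
  obtain ⟨hea, heb, hec, hed⟩ := he
  have i₁ : Function.Injective ![a, f a, c, f c] := by
    intro i j h
    fin_cases i <;> fin_cases j <;> simp [hab, hcd, hac, hbc, hc'.1, hc'.2, Ne.symm hab, Ne.symm hcd,
      Ne.symm hac, Ne.symm hbc, Ne.symm hc'.1, Ne.symm hc'.2] at h ⊢
  have i₂ : Function.Injective ![a, f a, c, e] := by
    intro i j h
    fin_cases i <;> fin_cases j <;> simp [hab, hea, heb, hec, hc'.1, hc'.2, Ne.symm hab, Ne.symm hea,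
      Ne.symm heb, Ne.symm hec, Ne.symm hc'.1, Ne.symm hc'.2] at h ⊢
  haveI : IsPretransitive G (Fin 4 ↪ α) := hG
  obtain ⟨g, hg⟩ := exists_smul_eq G (⟨_, i₁⟩ : Fin 4 ↪ α) ⟨_, i₂⟩
  have ga : (g : Perm α) a = a := congrArg (fun t : Fin 4 ↪ α => t 0) hg
  have gb : (g : Perm α) (f a) = f a := congrArg (fun t : Fin 4 ↪ α => t 1) hg
  have gc : (g : Perm α) c = c := congrArg (fun t : Fin 4 ↪ α => t 2) hg
  have gd : (g : Perm α) (f c) = e := congrArg (fun t : Fin 4 ↪ α => t 3) hg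
  have heq : f = swap a (f a) * swap c (f c) := by
    ext z
    rw [Perm.mul_apply]
    by_cases hz : z ∈ f.support
    · rw [hsupp] at hz
      simp only [Finset.mem_insert, Finset.mem_singleton] at hz
      rcases hz with rfl | rfl | rfl | rfl
      · rw [swap_apply_of_ne_of_ne (Ne.symm hc'.1) hac.symm, swap_apply_left]
      · rw [swap_apply_of_ne_of_ne (Ne.symm hc'.2) hbc.symm, swap_apply_right, hinv]
      · rw [swap_apply_left, swap_apply_of_ne_of_ne hac hbc]
      · rw [swap_apply_right, swap_apply_of_ne_of_ne hc'.1 hc'.2, hinv]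
    · have hz' := hz
      rw [hsupp] at hz'
      simp only [Finset.mem_insert, Finset.mem_singleton, not_or] at hz'
      rw [swap_apply_of_ne_of_ne hz'.2.2.1 hz'.2.2.2, swap_apply_of_ne_of_ne hz'.1 hz'.2.1,
        notMem_support.1 hz]
  have hconj : (g : Perm α) * f * (g : Perm α)⁻¹ = swap a (f a) * swap c e := by
    conv_lhs => rw [heq]
    rw [← mul_assoc, mul_swap_eq_swap_mul (g : Perm α) a (f a), ga, gb,
      mul_assoc (swap a (f a)) (g : Perm α), mul_swap_eq_swap_mul (g : Perm α) c (f c), gc, gd,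
      ← mul_assoc, mul_inv_cancel_right]
  have hcomm : swap a (f a) * swap c (f c) = swap c (f c) * swap a (f a) :=
    Equiv.Perm.Disjoint.commute (disjoint_iff_disjoint_support.2 (by
      rw [support_swap hab.symm, support_swap hcd.symm]
      simp [hc'.1, hc'.2, hac, hbc]))
  have h3 : IsThreeCycle (swap c (f c) * swap c e) :=
    isThreeCycle_swap_mul_swap_same hcd.symm (Ne.symm hec) (Ne.symm hed)
  have hfg : f * ((g : Perm α) * f * (g : Perm α)⁻¹) = swap c (f c) * swap c e := by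
    rw [hconj]
    conv_lhs => arg 1; rw [heq, hcomm]
    rw [mul_assoc, ← mul_assoc (swap a (f a)), swap_mul_self, one_mul]
  exact alternatingGroup_le_of_isPreprimitive_of_isThreeCycle_mem
    (isPreprimitive_of_multiply hG (by norm_num) (by omega)) h3
    (hfg ▸ G.mul_mem hf (G.mul_mem (G.mul_mem g.2 hf) (G.inv_mem g.2)))

/-- Degree nine: a four transitive group with a product of two disjoint three-cycles. -/
theorem alternating_of_nine (G : Subgroup (Perm α)) (hG : IsMultiplyPretransitive G α 4)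
    (hn : Fintype.card α = 9) {f : Perm α} (hf : f ∈ G) (hct : f.cycleType = {3, 3}) :
    alternatingGroup α ≤ G := by
  obtain ⟨e₀⟩ : Nonempty (Fin 9 ≃ α) := ⟨(Fintype.equivFinOfCardEq hn).symm⟩
  have hc : IsConj (e₀.permCongr y9) f := by
    rw [isConj_iff_cycleType_eq, hct, ← y9_cycleType]
    exact cycleType_eq_of_apply e₀.toEmbedding (fun i => by simp [Equiv.permCongr_apply])
      (fun a ha => absurd ⟨e₀.symm a, by simp⟩ ha)
  obtain ⟨c, hc⟩ := isConj_iff.1 hc
  set e : Fin 9 ≃ α := e₀.trans c with he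
  let φ : Perm (Fin 9) →* Perm α :=
    MonoidHom.mk' (fun s => e.permCongr s) fun s t => Equiv.ext fun a => by simp [Equiv.permCongr_apply]
  have hy : φ y9 = f := by
    rw [← hc]
    exact Equiv.ext fun a => by simp [φ, e, Equiv.permCongr_apply]
  have i₁ : Function.Injective ![e 0, e 1, e 3, e 4] := by
    intro i j h
    fin_cases i <;> fin_cases j <;> simp_all
  have i₂ : Function.Injective ![e 0, e 1, e 3, e 5] := by
    intro i j h
    fin_cases i <;> fin_cases j <;> simp_all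
  haveI : IsPretransitive G (Fin 4 ↪ α) := hG
  obtain ⟨g, hg⟩ := exists_smul_eq G (⟨_, i₁⟩ : Fin 4 ↪ α) ⟨_, i₂⟩
  set s : Perm (Fin 9) := e.symm.permCongr (g : Perm α) with hs
  have hsg : φ s = g := Equiv.ext fun a => by simp [φ, s, Equiv.permCongr_apply]
  have s0 : s 0 = 0 := by
    have h : (g : Perm α) (e 0) = e 0 := congrArg (fun t : Fin 4 ↪ α => t 0) hg
    simp [s, Equiv.permCongr_apply, h]
  have s1 : s 1 = 1 := by
    have h : (g : Perm α) (e 1) = e 1 := congrArg (fun t : Fin 4 ↪ α => t 1) hg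
    simp [s, Equiv.permCongr_apply, h]
  have s3 : s 3 = 3 := by
    have h : (g : Perm α) (e 3) = e 3 := congrArg (fun t : Fin 4 ↪ α => t 2) hg
    simp [s, Equiv.permCongr_apply, h]
  have s4 : s 4 = 5 := by
    have h : (g : Perm α) (e 4) = e 5 := congrArg (fun t : Fin 4 ↪ α => t 3) hg
    simp [s, Equiv.permCongr_apply, h]
  have hz : z9 (s 2) (s 5) = s * y9 * s⁻¹ := by
    rw [eq_mul_inv_iff_mul_eq]
    have e1 : y9 = swap 0 2 * swap 0 1 * (swap 3 5 * swap 3 4) := by decide +kernel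
    rw [e1, z9]
    simp only [← mul_assoc]
    rw [mul_swap_eq_swap_mul s 0 2, s0, mul_assoc (swap (0 : Fin 9) (s 2)) s,
      mul_swap_eq_swap_mul s 0 1, s0, s1]
    simp only [← mul_assoc]
    rw [mul_assoc _ s, mul_swap_eq_swap_mul s 3 5, s3]
    simp only [← mul_assoc]
    rw [mul_assoc _ s, mul_swap_eq_swap_mul s 3 4, s3, s4]
    simp only [← mul_assoc]
  have hzG : φ (z9 (s 2) (s 5)) ∈ G := by
    rw [hz, map_mul, map_mul, map_inv, hy, hsg]
    exact G.mul_mem (G.mul_mem g.2 hf) (G.inv_mem g.2)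
  have hyG : φ y9 ∈ G := by rw [hy]; exact hf
  have hgood : ∀ t : Perm (Fin 9), Good9 t → φ t ∈ G → alternatingGroup α ≤ G := by
    intro t ht htG
    have hcard : (φ t).support.card = t.support.card :=
      support_card_eq_of_apply e.toEmbedding (fun i => by simp [φ, Equiv.permCongr_apply])
        (fun a ha => absurd ⟨e.symm a, by simp⟩ ha)
    have hprim := isPreprimitive_of_multiply hG (by norm_num) (by omega)
    rcases ht with h | ⟨h, h5⟩ | ⟨h, h2⟩
    · exact alternatingGroup_le_of_isPreprimitive_of_isThreeCycle_mem hprim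
        (card_support_eq_three_iff.1 (hcard.trans h)) htG
    · haveI : Fact (Nat.Prime 5) := ⟨by norm_num⟩
      have ho : orderOf (φ t) = 5 := orderOf_eq_prime (by rw [← map_pow, h5, map_one]) (fun e => by
        rw [e, support_one, Finset.card_empty] at hcard
        omega)
      refine alternatingGroup_le_of_primitive_pCycle G hprim (p := 5) (by norm_num) (by omega)
        (isCycle_of_prime_order (by rw [ho]; norm_num) (by rw [ho]; omega)) (hcard.trans h) htG
    · exact alternating_of_four_involution G hG (by omega) htG (hcard.trans h)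
        (by rw [← map_pow, h2, map_one])
  have ne : ∀ i j : Fin 9, i ≠ j → s i ≠ s j := fun i j h h' => h (s.injective h')
  have := nine_words (s 2) (s 5) (s0 ▸ ne 2 0 (by decide)) (s1 ▸ ne 2 1 (by decide))
    (s3 ▸ ne 2 3 (by decide)) (s4 ▸ ne 2 4 (by decide)) (s0 ▸ ne 5 0 (by decide))
    (s1 ▸ ne 5 1 (by decide)) (s3 ▸ ne 5 3 (by decide)) (s4 ▸ ne 5 4 (by decide)) (ne 2 5 (by decide))
  rcases this with h | h | h
  · exact hgood _ h (by rw [map_mul]; exact G.mul_mem hyG hzG)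
  · exact hgood _ h (by rw [map_mul, map_inv]; exact G.mul_mem hyG (G.inv_mem hzG))
  · exact hgood _ h (by rw [map_pow, map_mul]; exact G.pow_mem (G.mul_mem hyG hzG) 2)

/-! ### The local structure -/

/-- `P` fixes the points `x i` and has only orbits of length `p` elsewhere. -/
structure Local (G P : Subgroup (Perm α)) {r : ℕ} (x : Fin r ↪ α) (p : ℕ) : Prop where
  le : P ≤ G
  isP : IsPGroup p P
  fix : ∀ π ∈ P, ∀ i, π (x i) = x i
  orbit_card : ∀ a, a ∉ Set.range x → Nat.card (MulAction.orbit P a) = p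

variable {G P : Subgroup (Perm α)} {r : ℕ} {x : Fin r ↪ α} {p : ℕ}

/-- The normalising elements of `G` fixing each orbit of `P` off the range of `x`. -/
def core (G P : Subgroup (Perm α)) (x : Fin r ↪ α) : Subgroup (Perm α) where
  carrier := {g | g ∈ G ∧ g ∈ Subgroup.normalizer (P : Set (Perm α)) ∧
    ∀ a, a ∉ Set.range x → ∀ b, g b ∈ orbit P a ↔ b ∈ orbit P a}
  one_mem' := ⟨G.one_mem, Subgroup.one_mem _, fun _ _ _ => Iff.rfl⟩
  mul_mem' := fun ⟨h₁, h₂, h₃⟩ ⟨k₁, k₂, k₃⟩ =>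
    ⟨G.mul_mem h₁ k₁, Subgroup.mul_mem _ h₂ k₂, fun a ha b => (h₃ a ha _).trans (k₃ a ha b)⟩
  inv_mem' := fun {g} ⟨h₁, h₂, h₃⟩ => ⟨G.inv_mem h₁, Subgroup.inv_mem _ h₂, fun a ha b => by
    have := h₃ a ha (g⁻¹ b)
    rw [Equiv.Perm.coe_inv, Equiv.apply_symm_apply] at this
    exact this.symm⟩

theorem Local.le_core (L : Local G P x p) : P ≤ core G P x := by
  refine fun π hπ => ⟨L.le hπ, Subgroup.le_normalizer hπ, fun a _ b => ?_⟩
  rw [← MulAction.orbit_eq_iff, ← MulAction.orbit_eq_iff,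
    show π b = (⟨π, hπ⟩ : P) • b from rfl, MulAction.orbit_smul]

theorem normalizer_conj {g π : Perm α} (hg : g ∈ Subgroup.normalizer (P : Set (Perm α)))
    (hπ : π ∈ P) : g * π * g⁻¹ ∈ P :=
  (Subgroup.mem_normalizer_iff.1 hg π).1 hπ

theorem normalizer_conj' {g π : Perm α} (hg : g ∈ Subgroup.normalizer (P : Set (Perm α)))
    (hπ : π ∈ P) : g⁻¹ * π * g ∈ P := by
  simpa using normalizer_conj (Subgroup.inv_mem _ hg) hπ

theorem mem_orbit_conj {g : Perm α} (hg : g ∈ Subgroup.normalizer (P : Set (Perm α))) (a b : α) :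
    g b ∈ orbit P (g a) ↔ b ∈ orbit P a := by
  constructor
  · rintro ⟨⟨π, hπ⟩, h⟩
    refine ⟨⟨_, normalizer_conj' hg hπ⟩, ?_⟩
    show g.symm (π (g a)) = b
    rw [Equiv.symm_apply_eq]
    exact h
  · rintro ⟨⟨π, hπ⟩, h⟩
    refine ⟨⟨_, normalizer_conj hg hπ⟩, ?_⟩
    show g (π (g.symm (g a))) = g b
    rw [Equiv.symm_apply_apply]
    exact congrArg g h

theorem Local.apply_not_mem_range (L : Local G P x p) (hp : p.Prime) {g : Perm α}
    (hg : g ∈ Subgroup.normalizer (P : Set (Perm α))) {a : α} (ha : a ∉ Set.range x) :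
    g a ∉ Set.range x := by
  rintro ⟨i, hi⟩
  have hsub : Subsingleton (orbit P a) := by
    refine ⟨fun u v => Subtype.ext ?_⟩
    have key : ∀ b ∈ orbit P a, b = a := fun b hb => by
      obtain ⟨⟨π, hπ⟩, h⟩ := (mem_orbit_conj hg a b).2 hb
      exact g.injective (h.symm.trans (by rw [← hi]; exact L.fix π hπ i))
    rw [key u u.2, key v v.2]
  have h := L.orbit_card a ha
  have : Nat.card (orbit P a) ≤ 1 := Finite.card_le_one_iff_subsingleton.2 hsub
  have := hp.two_le
  omega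

theorem Local.apply_mem_range (L : Local G P x p) (hp : p.Prime) {g : Perm α}
    (hg : g ∈ Subgroup.normalizer (P : Set (Perm α))) (i : Fin r) : g (x i) ∈ Set.range x := by
  by_contra h
  have := L.apply_not_mem_range hp (Subgroup.inv_mem _ hg) h
  rw [Equiv.Perm.coe_inv, Equiv.symm_apply_apply] at this
  exact this ⟨i, rfl⟩

theorem Local.conj_mem_core (L : Local G P x p) (hp : p.Prime) {g u : Perm α} (hgG : g ∈ G)
    (hg : g ∈ Subgroup.normalizer (P : Set (Perm α))) (hu : u ∈ core G P x) :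
    g * u * g⁻¹ ∈ core G P x := by
  obtain ⟨h₁, h₂, h₃⟩ := hu
  refine ⟨G.mul_mem (G.mul_mem hgG h₁) (G.inv_mem hgG),
    Subgroup.mul_mem _ (Subgroup.mul_mem _ hg h₂) (Subgroup.inv_mem _ hg), fun a ha b => ?_⟩
  have ha' := L.apply_not_mem_range hp (Subgroup.inv_mem _ hg) ha
  have e1 := mem_orbit_conj hg (g⁻¹ a) (u (g⁻¹ b))
  have e2 := mem_orbit_conj hg (g⁻¹ a) (g⁻¹ b)
  simp only [Equiv.Perm.coe_inv, Equiv.apply_symm_apply] at e1 e2 ⊢
  simp only [Perm.mul_apply, Equiv.Perm.coe_inv]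
  rw [e1, e2]
  exact h₃ _ ha' _

/-- Restriction to one orbit. -/
def res (G P : Subgroup (Perm α)) (x : Fin r ↪ α) {a : α} (ha : a ∉ Set.range x) :
    core G P x →* Perm {b // b ∈ orbit P a} where
  toFun g := (g : Perm α).subtypePerm (g.2.2.2 a ha)
  map_one' := by ext; rfl
  map_mul' _ _ := by ext; rfl

theorem res_eq_iff {a : α} (ha : a ∉ Set.range x) {g h : core G P x} :
    res G P x ha g = res G P x ha h ↔ ∀ b ∈ orbit P a, (g : Perm α) b = (h : Perm α) b :=
  ⟨fun e b hb => congrArg Subtype.val (Equiv.congr_fun e ⟨b, hb⟩),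
    fun e => Equiv.ext fun b => Subtype.ext (e b.1 b.2)⟩

/-- An element of `P` moving a point of the orbit generates the restriction. -/
theorem Local.res_generates (L : Local G P x p) (hp : p.Prime) {a : α} (ha : a ∉ Set.range x)
    {z π : core G P x} (hz : (z : Perm α) ∈ P) (hπ : (π : Perm α) ∈ P)
    (hmove : res G P x ha z ≠ 1) :
    res G P x ha π ∈ Subgroup.zpowers (res G P x ha z) ∧ res G P x ha π ^ p = 1 := by
  classical
  haveI : Fact p.Prime := ⟨hp⟩
  set Q : Subgroup (Perm {b // b ∈ orbit P a}) :=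
    (P.subgroupOf (core G P x)).map (res G P x ha) with hQ
  have hQp : IsPGroup p Q :=
    (L.isP.comap_of_injective (core G P x).subtype (Subgroup.subtype_injective _)).map _
  obtain ⟨n, hn⟩ := hQp.exists_card_eq
  have hdvd : Nat.card Q ∣ p.factorial := by
    have h := Subgroup.card_subgroup_dvd_card Q
    rwa [Nat.card_perm, show Nat.card {b // b ∈ orbit P a} = p from L.orbit_card a ha] at h
  have hn1 : n ≤ 1 := by
    by_contra hlt
    have h2 : p ^ 2 ∣ p.factorial :=
      ((pow_dvd_pow p (show 2 ≤ n by omega)).trans (dvd_of_eq hn.symm)).trans hdvd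
    obtain ⟨q, rfl⟩ := Nat.exists_eq_succ_of_ne_zero hp.ne_zero
    rw [Nat.factorial_succ, pow_two, Nat.mul_dvd_mul_iff_left (Nat.succ_pos q)] at h2
    have := (hp.dvd_factorial).1 h2
    omega
  have hzQ : res G P x ha z ∈ Q := ⟨z, hz, rfl⟩
  have hπQ : res G P x ha π ∈ Q := ⟨π, hπ, rfl⟩
  have hQc : Nat.card Q = p := by
    rcases Nat.le_one_iff_eq_zero_or_eq_one.1 hn1 with rfl | rfl
    · rw [pow_zero, Subgroup.card_eq_one] at hn
      rw [hn, Subgroup.mem_bot] at hzQ
      exact absurd hzQ hmove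
    · rwa [pow_one] at hn
  constructor
  · obtain ⟨i, hi⟩ := mem_zpowers_of_prime_card hQc (g := (⟨_, hzQ⟩ : Q)) (g' := ⟨_, hπQ⟩)
      (fun h => hmove (congrArg Subtype.val h))
    exact ⟨i, congrArg Subtype.val hi⟩
  · have h := congrArg Subtype.val (pow_card_eq_one' (x := (⟨_, hπQ⟩ : Q)))
    rw [hQc] at h
    simpa using h

theorem Local.exists_mover (L : Local G P x p) (hp : p.Prime) {a : α} (ha : a ∉ Set.range x) :
    ∃ z : core G P x, (z : Perm α) ∈ P ∧ res G P x ha z ≠ 1 := by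
  have h := L.orbit_card a ha
  have := hp.two_le
  haveI : Nontrivial (orbit P a) := Finite.one_lt_card_iff_nontrivial.1 (by omega)
  obtain ⟨⟨b, hb⟩, hne⟩ := exists_ne (⟨a, mem_orbit_self a⟩ : orbit P a)
  obtain ⟨⟨π, hπ⟩, hπa⟩ := hb
  refine ⟨⟨π, L.le_core hπ⟩, hπ, fun e => hne (Subtype.ext ?_)⟩
  have h2 := congrArg Subtype.val (Equiv.congr_fun e ⟨a, mem_orbit_self a⟩)
  exact hπa.symm.trans h2

/-- The elements of the core centralising `P`. -/
def cent (G P : Subgroup (Perm α)) (x : Fin r ↪ α) : Subgroup (Perm α) :=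
  core G P x ⊓ Subgroup.centralizer (P : Set (Perm α))

theorem Local.comm_mem_cent (L : Local G P x p) (hp : p.Prime) {u v : Perm α}
    (hu : u ∈ core G P x) (hv : v ∈ core G P x) : u * v * u⁻¹ * v⁻¹ ∈ cent G P x := by
  have hc : u * v * u⁻¹ * v⁻¹ ∈ core G P x :=
    mul_mem (mul_mem (mul_mem hu hv) (inv_mem hu)) (inv_mem hv)
  refine ⟨hc, fun π hπ => ?_⟩
  set U : core G P x := ⟨u, hu⟩
  set V : core G P x := ⟨v, hv⟩
  set Tp : core G P x := ⟨π, L.le_core hπ⟩
  refine Equiv.ext fun b => ?_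
  by_cases hb : b ∈ Set.range x
  · obtain ⟨i, rfl⟩ := hb
    obtain ⟨j, hj⟩ := L.apply_mem_range hp hc.2.1 i
    simp only [Perm.mul_apply] at hj ⊢
    rw [L.fix π hπ i, ← hj, L.fix π hπ j]
  · obtain ⟨z, hz, hmove⟩ := L.exists_mover hp hb
    set R := res G P x hb
    have hn : ∀ W : core G P x, R W * R z * (R W)⁻¹ ∈ Subgroup.zpowers (R z) := fun W => by
      rw [← map_inv, ← map_mul, ← map_mul]
      exact (L.res_generates hp hb hz (π := W * z * W⁻¹) (normalizer_conj W.2.2.1 hz) hmove).1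
    have h1 := hn U⁻¹
    have h2 := hn V⁻¹
    have hcm := CfsgLib.PermPrimes.commute_of_normalize h1 h2
    simp only [map_inv, inv_inv] at hcm
    obtain ⟨i, hi⟩ := Subgroup.mem_zpowers_iff.1 (L.res_generates hp hb hz (π := Tp) hπ hmove).1
    have hfin : R (Tp * (U * V * U⁻¹ * V⁻¹)) = R ((U * V * U⁻¹ * V⁻¹) * Tp) := by
      simp only [map_mul, map_inv]
      rw [← hi]
      exact (hcm.symm.zpow_left i).eq
    exact (res_eq_iff hb).1 hfin b (mem_orbit_self b)

theorem Local.res_cent (L : Local G P x p) (hp : p.Prime) {a : α} (ha : a ∉ Set.range x)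
    {z u : core G P x} (hz : (z : Perm α) ∈ P) (hmove : res G P x ha z ≠ 1)
    (hu : (u : Perm α) ∈ Subgroup.centralizer (P : Set (Perm α))) :
    res G P x ha u ∈ Subgroup.zpowers (res G P x ha z) := by
  have hmem : (u : Perm α) a ∈ orbit P a := (u.2.2.2 a ha a).2 (mem_orbit_self a)
  obtain ⟨⟨π, hπ⟩, hπa⟩ := hmem
  have h : res G P x ha u = res G P x ha ⟨π, L.le_core hπ⟩ := by
    rw [res_eq_iff]
    rintro b ⟨⟨τ, hτ⟩, rfl⟩
    obtain ⟨i, hi⟩ := Subgroup.mem_zpowers_iff.1
      (L.res_generates hp ha hz (π := ⟨τ, L.le_core hτ⟩) hτ hmove).1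
    obtain ⟨j, hj⟩ := Subgroup.mem_zpowers_iff.1
      (L.res_generates hp ha hz (π := ⟨π, L.le_core hπ⟩) hπ hmove).1
    have hcomm : res G P x ha (⟨π, L.le_core hπ⟩ * ⟨τ, L.le_core hτ⟩) =
        res G P x ha (⟨τ, L.le_core hτ⟩ * ⟨π, L.le_core hπ⟩) := by
      rw [map_mul, map_mul, ← hi, ← hj, zpow_mul_comm]
    show (u : Perm α) (τ a) = π (τ a)
    have e1 : (u : Perm α) (τ a) = τ ((u : Perm α) a) := (Equiv.congr_fun (hu τ hτ) a).symm
    have e2 : π (τ a) = τ (π a) := (res_eq_iff ha).1 hcomm a (mem_orbit_self a)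
    rw [e1, e2]
    exact congrArg τ hπa.symm
  rw [h]
  exact (L.res_generates hp ha hz (π := ⟨π, L.le_core hπ⟩) hπ hmove).1

theorem Local.pow_fix (L : Local G P x p) (hp : p.Prime) {u : Perm α} (hu : u ∈ cent G P x)
    {b : α} (hb : b ∉ Set.range x) : (u ^ p) b = b := by
  obtain ⟨z, hz, hmove⟩ := L.exists_mover hp hb
  obtain ⟨i, hi⟩ := Subgroup.mem_zpowers_iff.1
    (L.res_cent hp hb hz hmove (u := ⟨u, hu.1⟩) hu.2)
  have h : res G P x hb (⟨u, hu.1⟩ ^ p) = res G P x hb 1 := by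
    rw [map_pow, ← hi, ← zpow_natCast, zpow_comm, zpow_natCast,
      (L.res_generates hp hb hz hz hmove).2, one_zpow, map_one]
  exact (res_eq_iff hb).1 h b (mem_orbit_self b)

theorem Local.comm_fix (L : Local G P x p) (hp : p.Prime) {u v : Perm α} (hu : u ∈ cent G P x)
    (hv : v ∈ cent G P x) {b : α} (hb : b ∉ Set.range x) : (u * v * u⁻¹ * v⁻¹) b = b := by
  obtain ⟨z, hz, hmove⟩ := L.exists_mover hp hb
  obtain ⟨i, hi⟩ := Subgroup.mem_zpowers_iff.1 (L.res_cent hp hb hz hmove (u := ⟨u, hu.1⟩) hu.2)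
  obtain ⟨j, hj⟩ := Subgroup.mem_zpowers_iff.1 (L.res_cent hp hb hz hmove (u := ⟨v, hv.1⟩) hv.2)
  have h : res G P x hb (⟨u, hu.1⟩ * ⟨v, hv.1⟩ * ⟨u, hu.1⟩⁻¹ * ⟨v, hv.1⟩⁻¹) = res G P x hb 1 := by
    rw [map_mul, map_mul, map_mul, map_inv, map_inv, map_one, ← hi, ← hj, zpow_mul_comm]
    group
  exact (res_eq_iff hb).1 h b (mem_orbit_self b)

theorem Local.pow_eq_one (L : Local G P x p) (hp : p.Prime) {π : Perm α} (hπ : π ∈ P) :
    π ^ p = 1 := by
  refine Equiv.ext fun b => ?_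
  by_cases hb : b ∈ Set.range x
  · obtain ⟨i, rfl⟩ := hb
    exact L.fix _ (P.pow_mem hπ p) i
  · obtain ⟨z, hz, hmove⟩ := L.exists_mover hp hb
    have h : res G P x hb (⟨π, L.le_core hπ⟩ ^ p) = res G P x hb 1 := by
      rw [map_pow, map_one]
      exact (L.res_generates hp hb hz hπ hmove).2
    exact (res_eq_iff hb).1 h b (mem_orbit_self b)

/-- An element of `P` moving points in a single orbit is a `p`-cycle. -/
theorem Local.eq_one_of_single (L : Local G P x p) (hp : p.Prime)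
    (hnc : ∀ π ∈ P, π.IsCycle → π.support.card ≠ p) {π : Perm α} (hπ : π ∈ P) {a : α}
    (ha : a ∉ Set.range x) (hfix : ∀ b, b ∉ orbit P a → π b = b) : π = 1 := by
  by_contra hne
  haveI : Fact p.Prime := ⟨hp⟩
  have hsub : ↑π.support ⊆ orbit P a := fun b hb => by
    by_contra h
    exact mem_support.1 hb (hfix b h)
  have hmoveπ : res G P x ha ⟨π, L.le_core hπ⟩ ≠ 1 := by
    intro e
    refine hne (Equiv.ext fun b => ?_)
    by_cases h : b ∈ orbit P a
    · exact congrArg Subtype.val (Equiv.congr_fun e ⟨b, h⟩)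
    · exact hfix b h
  have hsup : orbit P a ⊆ ↑π.support := by
    intro b hb
    rw [Finset.mem_coe, mem_support]
    intro hfx
    apply hmoveπ
    refine Equiv.ext fun ⟨c, hc⟩ => Subtype.ext ?_
    show π c = c
    obtain ⟨⟨τ, hτ⟩, hτb⟩ : c ∈ orbit P b := by rwa [MulAction.orbit_eq_iff.2 hb]
    obtain ⟨i, hi⟩ := Subgroup.mem_zpowers_iff.1 (L.res_generates hp ha (z := ⟨π, L.le_core hπ⟩) hπ
      (π := ⟨τ, L.le_core hτ⟩) hτ hmoveπ).1
    rw [← map_zpow] at hi
    have h2 : (π ^ i) b = c := ((res_eq_iff ha).1 hi b hb).trans hτb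
    rw [← h2, ← Perm.mul_apply, (Commute.self_zpow π i).eq, Perm.mul_apply, hfx]
  have hcard : π.support.card = p := by
    rw [← L.orbit_card a ha, ← Set.Subset.antisymm hsub hsup, Nat.card_coe_set_eq,
      Set.ncard_coe_finset]
  have ho : orderOf π = p := orderOf_eq_prime (L.pow_eq_one hp hπ) hne
  exact hnc π hπ (isCycle_of_prime_order (by rw [ho]; exact hp) (by rw [hcard, ho]; have := hp.two_le; omega)) hcard

theorem Local.zpow_transfer (L : Local G P x p) (hp : p.Prime) {a : α} (ha : a ∉ Set.range x)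
    {z w W π : core G P x} (hz : (z : Perm α) ∈ P) (hπ : (π : Perm α) ∈ P)
    (hmove : res G P x ha z ≠ 1) (hw : res G P x ha (w * z * w⁻¹) = res G P x ha W) {i : ℤ}
    (hW : res G P x ha W = res G P x ha z ^ i) :
    res G P x ha (w * π * w⁻¹) = res G P x ha π ^ i := by
  obtain ⟨j, hj⟩ := Subgroup.mem_zpowers_iff.1 (L.res_generates hp ha hz hπ hmove).1
  rw [hW, map_mul, map_mul, map_inv] at hw
  rw [map_mul, map_mul, map_inv, ← hj, ← conj_zpow, hw, ← zpow_mul, ← zpow_mul, mul_comm]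

/-- With at most three orbits and no `p`-cycle, the core induces powers on `P`. -/
theorem Local.exists_uniform (L : Local G P x p) (hp : p.Prime)
    (hnc : ∀ π ∈ P, π.IsCycle → π.support.card ≠ p)
    (hfew : ∀ a b c d, a ∉ Set.range x → b ∉ Set.range x → c ∉ Set.range x → d ∉ Set.range x →
      c ∉ orbit P a → c ∉ orbit P b → d ∉ orbit P a → d ∉ orbit P b →
      orbit P a ≠ orbit P b → d ∈ orbit P c)
    {g : Perm α} (hg : g ∈ core G P x) : ∃ i : ℤ, ∀ π ∈ P, g * π * g⁻¹ = π ^ i := by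
  classical
  by_cases hall : ∀ a, a ∈ Set.range x
  · refine ⟨1, fun π hπ => ?_⟩
    have : π = 1 := Equiv.ext fun b => by
      obtain ⟨i, rfl⟩ := hall b
      exact L.fix π hπ i
    rw [this]; simp
  push Not at hall
  obtain ⟨a, ha⟩ := hall
  set W : core G P x := ⟨g, hg⟩
  obtain ⟨z₀, hz₀, hmove₀⟩ := L.exists_mover hp ha
  obtain ⟨i, hi⟩ := Subgroup.mem_zpowers_iff.1
    (L.res_generates hp ha hz₀ (π := W * z₀ * W⁻¹) (normalizer_conj hg.2.1 hz₀) hmove₀).1
  refine ⟨i, fun π hπ => Equiv.ext fun b => ?_⟩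
  have hgπ : g * π * g⁻¹ ∈ P := normalizer_conj hg.2.1 hπ
  by_cases hb : b ∈ Set.range x
  · obtain ⟨j, rfl⟩ := hb
    rw [L.fix _ hgπ, L.fix _ (P.zpow_mem hπ i)]
  set Tp : core G P x := ⟨π, L.le_core hπ⟩
  suffices h : res G P x hb (W * Tp * W⁻¹) = res G P x hb (Tp ^ i) by
    exact (res_eq_iff hb).1 h b (mem_orbit_self b)
  have hA : ∀ τ : core G P x, (τ : Perm α) ∈ P →
      res G P x ha (W * τ * W⁻¹) = res G P x ha τ ^ i :=
    fun τ hτ => L.zpow_transfer hp ha hz₀ hτ hmove₀ rfl hi.symm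
  by_cases hab : orbit P a = orbit P b
  · have := hA Tp hπ
    rw [← map_zpow, res_eq_iff] at this
    rw [res_eq_iff]
    exact fun c hc => this c (hab ▸ hc)
  -- an element moving both orbits, sent to one of its powers
  suffices hz : ∃ (z : core G P x) (j : ℤ), (z : Perm α) ∈ P ∧ res G P x ha z ≠ 1 ∧
      res G P x hb z ≠ 1 ∧ W * z * W⁻¹ = z ^ j by
    obtain ⟨z, j, hzP, hza, hzb, hzj⟩ := hz
    have h1 := hA z hzP
    rw [hzj, map_zpow] at h1
    haveI : Fact p.Prime := ⟨hp⟩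
    have hord : orderOf (res G P x ha z) = p :=
      orderOf_eq_prime (L.res_generates hp ha hzP hzP hza).2 hza
    have hmod : i ≡ j [ZMOD (p : ℤ)] := by
      have := zpow_eq_zpow_iff_modEq.1 h1.symm
      rwa [hord] at this
    have hpow := (L.res_generates hp hb hzP (π := Tp) hπ hzb).2
    rw [L.zpow_transfer hp hb hzP hπ hzb (W := z ^ j) (by rw [hzj]) (map_zpow _ _ _) (π := Tp),
      map_zpow, zpow_eq_zpow_iff_modEq]
    exact (hmod.symm).of_dvd (Int.natCast_dvd_natCast.2 (orderOf_dvd_of_pow_eq_one hpow))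
  have inj : ∀ {c : α} (hc : c ∉ Set.range x) (τ : core G P x), (τ : Perm α) ∈ P →
      res G P x hc τ = 1 → ∀ d ∈ orbit P c, (τ : Perm α) d = d := fun hc τ _ e d hd =>
    congrArg Subtype.val (Equiv.congr_fun e ⟨d, hd⟩)
  by_cases hZ : ∃ z ∈ P, z ≠ 1 ∧ ∀ c, c ∉ orbit P a → c ∉ orbit P b → z c = c
  · obtain ⟨z, hzP, hz1, hzfix⟩ := hZ
    set Z : core G P x := ⟨z, L.le_core hzP⟩
    have hza : res G P x ha Z ≠ 1 := fun e => hz1 (L.eq_one_of_single hp hnc hzP hb fun c hc => by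
      by_cases hca : c ∈ orbit P a
      · exact inj ha Z hzP e c hca
      · exact hzfix c hca hc)
    have hzb : res G P x hb Z ≠ 1 := fun e => hz1 (L.eq_one_of_single hp hnc hzP ha fun c hc => by
      by_cases hcb : c ∈ orbit P b
      · exact inj hb Z hzP e c hcb
      · exact hzfix c hc hcb)
    refine ⟨Z, i, hzP, hza, hzb, ?_⟩
    set V : core G P x := W * Z * W⁻¹ * (Z ^ i)⁻¹ with hV
    have hVP : (V : Perm α) ∈ P := by
      rw [hV]
      simpa [W, Z] using P.mul_mem (normalizer_conj hg.2.1 hzP) (P.inv_mem (P.zpow_mem hzP i))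
    have hVa : res G P x ha V = 1 := by
      rw [hV, map_mul, hA Z hzP, map_inv, map_zpow, mul_inv_cancel]
    suffices hV1 : (V : Perm α) = 1 by
      apply mul_inv_eq_one.1
      exact Subtype.ext hV1
    refine L.eq_one_of_single hp hnc hVP hb fun c hc => ?_
    by_cases hca : c ∈ orbit P a
    · exact inj ha V hVP hVa c hca
    have hzi : ((z ^ i)⁻¹) c = c := by
      rw [← zpow_neg]
      exact zpow_apply_eq_self_of_apply_eq_self (hzfix c hca hc) _
    have hg' : g * z * g⁻¹ * (z ^ i)⁻¹ = (V : Perm α) := by simp [hV, W, Z]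
    rw [← hg', Perm.mul_apply, hzi]
    have h1 : g⁻¹ c ∉ orbit P a := fun h => hca (by simpa using (hg.2.2 a ha (g⁻¹ c)).2 h)
    have h2 : g⁻¹ c ∉ orbit P b := fun h => hc (by simpa using (hg.2.2 b hb (g⁻¹ c)).2 h)
    simp only [Perm.mul_apply]
    rw [hzfix _ h1 h2]
    simp
  push Not at hZ
  -- a third orbit on which `P` acts faithfully
  obtain ⟨c, hca, hcb, hzc⟩ := hZ z₀ hz₀ fun e => hmove₀ (by
    have : z₀ = 1 := Subtype.ext e
    rw [this, map_one])
  have hc : c ∉ Set.range x := by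
    rintro ⟨j, rfl⟩
    exact hzc (L.fix _ hz₀ j)
  have faith : ∀ τ : core G P x, (τ : Perm α) ∈ P → res G P x hc τ = 1 → τ = 1 := by
    intro τ hτ e
    refine Subtype.ext ?_
    by_contra hne
    obtain ⟨d, hda, hdb, hd⟩ := hZ (τ : Perm α) hτ hne
    refine hd (inj hc τ hτ e d (hfew a b c d ha hb hc ?_ hca hcb hda hdb hab))
    rintro ⟨j, rfl⟩
    exact hd (L.fix _ hτ j)
  obtain ⟨z, hzP, hzc'⟩ := L.exists_mover hp hc
  have gen : ∀ τ : core G P x, (τ : Perm α) ∈ P → ∃ l : ℤ, τ = z ^ l := by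
    intro τ hτ
    obtain ⟨l, hl⟩ := Subgroup.mem_zpowers_iff.1 (L.res_generates hp hc hzP hτ hzc').1
    refine ⟨l, mul_inv_eq_one.1 (faith (τ * (z ^ l)⁻¹) ?_ ?_)⟩
    · simpa using P.mul_mem hτ (P.inv_mem (P.zpow_mem hzP l))
    · rw [map_mul, map_inv, map_zpow, hl, mul_inv_cancel]
  obtain ⟨j, hj⟩ := gen (W * z * W⁻¹) (normalizer_conj hg.2.1 hzP)
  refine ⟨z, j, hzP, fun e => hmove₀ ?_, fun e => ?_, hj⟩
  · obtain ⟨l, rfl⟩ := gen z₀ hz₀
    rw [map_zpow, e, one_zpow]
  · obtain ⟨y, hy, hyb⟩ := L.exists_mover hp hb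
    obtain ⟨l, rfl⟩ := gen y hy
    exact hyb (by rw [map_zpow, e, one_zpow])

/-! ### The theorem -/

/-- `σ` is the action of an element of `T` on the points `x i`. -/
def Induced (T : Subgroup (Perm α)) (x : Fin r ↪ α) (σ : Perm (Fin r)) : Prop :=
  ∃ g ∈ T, ∀ i, g (x i) = x (σ i)

theorem induced_mul {T : Subgroup (Perm α)} {σ τ : Perm (Fin r)} (hσ : Induced T x σ)
    (hτ : Induced T x τ) : Induced T x (σ * τ) := by
  obtain ⟨g, hg, hgx⟩ := hσ
  obtain ⟨h, hh, hhx⟩ := hτ
  exact ⟨g * h, T.mul_mem hg hh, fun i => by rw [Perm.mul_apply, hhx, hgx, Perm.mul_apply]⟩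

theorem induced_inv {T : Subgroup (Perm α)} {σ : Perm (Fin r)} (hσ : Induced T x σ) :
    Induced T x σ⁻¹ := by
  obtain ⟨g, hg, hgx⟩ := hσ
  refine ⟨g⁻¹, T.inv_mem hg, fun i => ?_⟩
  rw [Equiv.Perm.coe_inv, Equiv.symm_apply_eq, hgx]
  simp

/-- The permutations induced on the points `x i`. -/
def inducedGroup (T : Subgroup (Perm α)) (x : Fin r ↪ α) : Subgroup (Perm (Fin r)) where
  carrier := {σ | Induced T x σ}
  one_mem' := ⟨1, T.one_mem, fun _ => rfl⟩
  mul_mem' := induced_mul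
  inv_mem' := induced_inv

/-- The data extracted from multiple transitivity. -/
structure Frame (G P : Subgroup (Perm α)) {r : ℕ} (x : Fin r ↪ α) (k p : ℕ) : Prop where
  toLocal : Local G P x p
  count : Fintype.card α = k * p + r
  sym : ∀ σ : Perm (Fin r), ∃ g ∈ G, g ∈ Subgroup.normalizer (P : Set (Perm α)) ∧ ∀ i, g (x i) = x (σ i)

variable {k : ℕ}

theorem exists_frame (G : Subgroup (Perm α)) (hp : p.Prime) (hn : Fintype.card α = k * p + r)
    (hk : 1 ≤ k) (hpk : k < p) (hG : IsMultiplyPretransitive G α (r + 1)) :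
    ∃ (P : Subgroup (Perm α)) (x : Fin r ↪ α), Frame G P x k p := by
  classical
  haveI : Fact p.Prime := ⟨hp⟩
  haveI : IsPretransitive G (Fin (r + 1) ↪ α) := hG
  have hkp : 0 < k * p := Nat.mul_pos hk hp.pos
  obtain ⟨x⟩ : Nonempty (Fin r ↪ α) := Function.Embedding.nonempty_of_card_le (by simp [hn])
  set H := stabilizer G x with hH
  have hfixH : ∀ h : H, ∀ i, ((h : G) : Perm α) (x i) = x i := fun h i =>
    congrArg (fun t : Fin r ↪ α => t i) h.2
  have htrans : ∀ a b, a ∉ Set.range x → b ∉ Set.range x → ∃ h : H, h • a = b := by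
    intro a b ha hb
    obtain ⟨g, hg⟩ := exists_smul_eq G (⟨Fin.cons a x, Fin.cons_injective_iff.2 ⟨ha, x.injective⟩⟩ : Fin (r+1) ↪ α)
      ⟨Fin.cons b x, Fin.cons_injective_iff.2 ⟨hb, x.injective⟩⟩
    refine ⟨⟨g, ?_⟩, congrArg (fun t : Fin (r+1) ↪ α => t 0) hg⟩
    rw [hH, mem_stabilizer_iff]
    ext i
    have := congrArg (fun t : Fin (r+1) ↪ α => t i.succ) hg
    exact this
  have hcompl : ((Set.range x)ᶜ : Set α).ncard = k * p := by
    rw [Set.ncard_compl, Set.ncard_range_of_injective x.injective, Nat.card_fin,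
      Nat.card_eq_fintype_card, hn, Nat.add_sub_cancel]
  have horbH : ∀ a, a ∉ Set.range x → orbit H a = (Set.range x)ᶜ := by
    intro a ha
    ext b
    constructor
    · rintro ⟨h, rfl⟩ ⟨i, hi⟩
      refine ha ⟨i, ?_⟩
      apply ((h : G) : Perm α).injective
      rw [hfixH h i]
      exact hi
    · exact fun hb => htrans a b ha hb
  obtain ⟨P₀⟩ : Nonempty (Sylow p H) := inferInstance
  refine ⟨((P₀ : Subgroup H).map H.subtype).map G.subtype, x, ⟨Subgroup.map_subtype_le _, ?_, ?_, ?_⟩, hn, ?_⟩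
  · exact (P₀.isPGroup'.map _).map _
  · rintro _ ⟨_, ⟨h, -, rfl⟩, rfl⟩ i
    exact hfixH h i
  · intro a ha
    have hset : orbit (((P₀ : Subgroup H).map H.subtype).map G.subtype) a = orbit (P₀ : Subgroup H) a := by
      ext b
      constructor
      · rintro ⟨⟨_, _, ⟨h, hh, rfl⟩, rfl⟩, rfl⟩
        exact ⟨⟨h, hh⟩, rfl⟩
      · rintro ⟨⟨h, hh⟩, rfl⟩
        exact ⟨⟨_, _, ⟨h, hh, rfl⟩, rfl⟩, rfl⟩
    rw [hset]
    obtain ⟨n, hnn⟩ := P₀.isPGroup'.card_orbit a
    have hle : Nat.card (orbit (P₀ : Subgroup H) a) ≤ k * p := by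
      rw [← hcompl, ← horbH a ha, Nat.card_coe_set_eq]
      refine Set.ncard_le_ncard ?_ (Set.toFinite _)
      rintro _ ⟨⟨h, hh⟩, rfl⟩
      exact ⟨h, rfl⟩
    have hlt : n < 2 := by
      by_contra h2
      have h1 : p ^ 2 ≤ p ^ n := Nat.pow_le_pow_right hp.pos (not_lt.1 h2)
      have h3 : k * p < p * p := Nat.mul_lt_mul_of_pos_right hpk hp.pos
      rw [hnn] at hle
      rw [pow_two] at h1
      omega
    interval_cases n
    · exfalso
      rw [pow_zero] at hnn
      apply P₀.not_dvd_index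
      have hsub : (P₀ : Subgroup H) ≤ stabilizer H a := by
        intro h hh
        rw [mem_stabilizer_iff]
        have := (Nat.card_eq_one_iff_unique.1 hnn).1
        exact congrArg Subtype.val (Subsingleton.elim
          (⟨h • a, ⟨h, hh⟩, rfl⟩ : orbit (P₀ : Subgroup H) a) ⟨a, mem_orbit_self a⟩)
      refine dvd_trans ?_ (Subgroup.index_dvd_of_le hsub)
      rw [index_stabilizer, horbH a ha, hcompl]
      exact dvd_mul_left p k
    · rw [hnn, pow_one]
  · intro σ
    obtain ⟨g, hg, hgx⟩ := Cfsg.Agent.S4219.result (G := G) (α := α) (t := r)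
      (MulAction.isMultiplyPretransitive_of_le (n := r + 1) (Nat.le_succ r)
        (by rw [Nat.card_eq_fintype_card]; omega)) x P₀ x (σ.toEmbedding.trans x)
      (fun i ⟨_, h, _, rfl⟩ => hfixH h i) (fun i ⟨_, h, _, rfl⟩ => hfixH h (σ i))
    exact ⟨g, g.2, Subgroup.le_normalizer_map G.subtype ⟨g, hg, rfl⟩,
      fun i => congrArg (fun t : Fin r ↪ α => t i) hgx⟩

theorem Frame.exists_induced (F : Frame G P x k p) (hp : p.Prime) (hk : 1 ≤ k) (hrk : k < r) :
    ∃ σ ≠ 1, Induced (core G P x) x σ := by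
  classical
  by_contra hno
  push Not at hno
  choose g hgG hgN hgx using F.sym
  let O : Finset (Set α) := (Finset.univ.filter (· ∉ Set.range x)).image (fun a => orbit P a)
  have hO : O.card * p = k * p := by
    have hc : (Finset.univ.filter (· ∉ Set.range x)).card = k * p := by
      rw [← Set.ncard_coe_finset]
      have : (↑(Finset.univ.filter (· ∉ Set.range x)) : Set α) = (Set.range x)ᶜ := by ext; simp
      rw [this, Set.ncard_compl, Set.ncard_range_of_injective x.injective, Nat.card_fin,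
        Nat.card_eq_fintype_card, F.count, Nat.add_sub_cancel]
    rw [← hc, Finset.card_eq_sum_card_image (fun a : α => orbit P a), Finset.sum_const_nat (m := p)]
    intro b hb
    obtain ⟨a, ha, rfl⟩ := Finset.mem_image.1 hb
    replace ha := (Finset.mem_filter.1 ha).2
    rw [← F.toLocal.orbit_card a ha, Nat.card_coe_set_eq, ← Set.ncard_coe_finset]
    congr 1
    ext c
    simp only [Finset.coe_filter, Finset.mem_filter, Finset.mem_univ, true_and, Set.mem_ofPred_eq]
    refine ⟨fun h => h.2 ▸ mem_orbit_self c, fun h => ⟨?_, orbit_eq_iff.2 h⟩⟩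
    rintro ⟨i, rfl⟩
    obtain ⟨⟨π, hπ⟩, h⟩ := h
    exact F.toLocal.apply_not_mem_range hp (Subgroup.le_normalizer hπ) ha ⟨i, h.symm⟩
  have hOk : O.card = k := Nat.eq_of_mul_eq_mul_right hp.pos hO
  have himg : ∀ σ a, (g σ) '' orbit P a = orbit P (g σ a) := fun σ a => by
    ext b
    constructor
    · rintro ⟨c, hc, rfl⟩
      exact (mem_orbit_conj (hgN σ) a c).2 hc
    · intro hb
      refine ⟨(g σ).symm b, (mem_orbit_conj (hgN σ) a _).1 (by rwa [Equiv.apply_symm_apply]), by simp⟩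
  have hmem : ∀ σ, ∀ B : {B // B ∈ O}, (g σ) '' B.1 ∈ O := by
    rintro σ ⟨_, hB⟩
    obtain ⟨a, ha, rfl⟩ := Finset.mem_image.1 hB
    exact Finset.mem_image.2 ⟨g σ a, Finset.mem_filter.2 ⟨Finset.mem_univ _,
      F.toLocal.apply_not_mem_range hp (hgN σ) (Finset.mem_filter.1 ha).2⟩, (himg σ a).symm⟩
  let Φ : Perm (Fin r) → ({B // B ∈ O} ↪ {B // B ∈ O}) := fun σ =>
    ⟨fun B => ⟨_, hmem σ B⟩, fun A B h => Subtype.ext
      ((g σ).injective.image_injective (congrArg Subtype.val h))⟩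
  have hΦ : Function.Injective Φ := by
    intro σ τ h
    have hu : (g σ)⁻¹ * g τ ∈ core G P x := by
      refine ⟨G.mul_mem (G.inv_mem (hgG σ)) (hgG τ),
        Subgroup.mul_mem _ (Subgroup.inv_mem _ (hgN σ)) (hgN τ), fun a ha b => ?_⟩
      have hB : orbit P a ∈ O :=
        Finset.mem_image.2 ⟨a, Finset.mem_filter.2 ⟨Finset.mem_univ _, ha⟩, rfl⟩
      have h2 : g σ '' orbit P a = g τ '' orbit P a :=
        congrArg Subtype.val (DFunLike.congr_fun h ⟨_, hB⟩)
      rw [← (g σ).injective.mem_set_image (s := orbit P a), h2]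
      simp [(g τ).injective.mem_set_image]
    have h1 : σ⁻¹ * τ = 1 := by
      by_contra hne
      refine hno _ hne ⟨_, hu, fun i => ?_⟩
      rw [Perm.mul_apply, hgx, Equiv.Perm.coe_inv, Equiv.symm_apply_eq, hgx]
      simp
    exact inv_mul_eq_one.1 h1
  have hcard := Fintype.card_le_of_injective Φ hΦ
  rw [Fintype.card_perm, Fintype.card_fin, Fintype.card_embedding_eq, Fintype.card_coe, hOk,
    Nat.descFactorial_self] at hcard
  have := (Nat.factorial_lt (show 0 < k by omega)).2 hrk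
  omega

theorem Frame.few_orbits (F : Frame G P x k p) (hp : p.Prime) (hk3 : k ≤ 3) :
    ∀ a b c d, a ∉ Set.range x → b ∉ Set.range x → c ∉ Set.range x → d ∉ Set.range x →
      c ∉ orbit P a → c ∉ orbit P b → d ∉ orbit P a → d ∉ orbit P b →
      orbit P a ≠ orbit P b → d ∈ orbit P c := by
  classical
  intro a b c d ha hb hc hd hca hcb hda hdb hab
  by_contra hdc
  have hs : ∀ e, e ∉ Set.range x → orbit P e ⊆ (Set.range x)ᶜ := by
    rintro e he _ ⟨⟨π, hπ⟩, rfl⟩
    exact F.toLocal.apply_not_mem_range hp (Subgroup.le_normalizer hπ) he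
  have hd' : ∀ {u v : α}, orbit P u ≠ orbit P v → _root_.Disjoint (orbit P u) (orbit P v) := fun {u v} h =>
    Set.disjoint_left.2 fun z hu hv => h ((orbit_eq_iff.2 hu).symm.trans (orbit_eq_iff.2 hv))
  have ne : ∀ {u v : α}, u ∉ orbit P v → orbit P v ≠ orbit P u := fun {u v} h e =>
    h (e ▸ mem_orbit_self u)
  have hsub : orbit P a ∪ orbit P b ∪ orbit P c ∪ orbit P d ⊆ (Set.range x)ᶜ :=
    Set.union_subset (Set.union_subset (Set.union_subset (hs a ha) (hs b hb)) (hs c hc)) (hs d hd)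
  have h4 := Set.ncard_le_ncard hsub (Set.toFinite _)
  have n4 : ∀ e, e ∉ Set.range x → (orbit P e).ncard = p := fun e he => by
    rw [← Nat.card_coe_set_eq, F.toLocal.orbit_card e he]
  rw [Set.ncard_union_eq (by
      rw [Set.disjoint_union_left, Set.disjoint_union_left]
      exact ⟨⟨hd' (ne hda), hd' (ne hdb)⟩, hd' (ne hdc)⟩),
    Set.ncard_union_eq (by
      rw [Set.disjoint_union_left]
      exact ⟨hd' (ne hca), hd' (ne hcb)⟩),
    Set.ncard_union_eq (hd' hab), n4 a ha, n4 b hb, n4 c hc, n4 d hd, Set.ncard_compl,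
    Set.ncard_range_of_injective x.injective, Nat.card_fin, Nat.card_eq_fintype_card, F.count,
    Nat.add_sub_cancel] at h4
  have := Nat.mul_le_mul_right p hk3
  have := hp.two_le
  omega

theorem Frame.induced_comm (F : Frame G P x k p) (hp : p.Prime)
    (hnc : ∀ π ∈ P, π.IsCycle → π.support.card ≠ p) (hk3 : k ≤ 3) {σ : Perm (Fin r)}
    (hσ : Induced (core G P x) x σ) (τ : Perm (Fin r)) :
    Induced (cent G P x) x (τ * σ * τ⁻¹ * σ⁻¹) := by
  obtain ⟨u, hu, hux⟩ := hσ
  obtain ⟨g, hgG, hgN, hgx⟩ := F.sym τ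
  have hc : g * u * g⁻¹ * u⁻¹ ∈ core G P x :=
    mul_mem (F.toLocal.conj_mem_core hp hgG hgN hu) (inv_mem hu)
  obtain ⟨i, hi⟩ := F.toLocal.exists_uniform hp hnc (F.few_orbits hp hk3) hu
  refine ⟨_, ⟨hc, fun π hπ => ?_⟩, fun j => ?_⟩
  · set π' := u⁻¹ * π * u with hπ'
    have hP' : π' ∈ P := normalizer_conj' hu.2.1 hπ
    have h1 : π = π' ^ i := by rw [← hi π' hP', hπ']; group
    have h2 := hi _ (normalizer_conj' hgN hP')
    have h3 : g * u * g⁻¹ * π' * (g * u * g⁻¹)⁻¹ = π' ^ i := by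
      have h4 : g * (u * (g⁻¹ * π' * g) * u⁻¹) * g⁻¹ = g * (g⁻¹ * π' * g) ^ i * g⁻¹ := by rw [h2]
      rw [← conj_zpow] at h4
      refine Eq.trans ?_ (h4.trans ?_)
      · group
      · congr 1; group
    calc π * (g * u * g⁻¹ * u⁻¹)
        = g * u * g⁻¹ * π' * (g * u * g⁻¹)⁻¹ * (g * u * g⁻¹ * u⁻¹) := by rw [h3, ← h1]
      _ = g * u * g⁻¹ * u⁻¹ * π := by rw [hπ']; group
  · have e1 : ∀ l, g⁻¹ (x l) = x (τ⁻¹ l) := fun l => by
      rw [Equiv.Perm.coe_inv, Equiv.symm_apply_eq, hgx]; simp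
    have e2 : ∀ l, u⁻¹ (x l) = x (σ⁻¹ l) := fun l => by
      rw [Equiv.Perm.coe_inv, Equiv.symm_apply_eq, hux]; simp
    simp only [Perm.mul_apply, e1, e2, hux, hgx]

theorem Frame.exists_supported (F : Frame G P x k p) (hp : p.Prime) {σ : Perm (Fin r)}
    (hσ : Induced (cent G P x) x σ) :
    ∃ f ∈ G, f.cycleType = (σ ^ p).cycleType := by
  obtain ⟨u, hu, hux⟩ := hσ
  refine ⟨u ^ p, G.pow_mem hu.1.1 p, cycleType_eq_of_apply x (fun i => ?_) fun a ha => ?_⟩
  · clear hu hp F
    induction p generalizing i with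
    | zero => rfl
    | succ n ih => rw [pow_succ, Perm.mul_apply, hux, ih, pow_succ, Perm.mul_apply]
  · exact F.toLocal.pow_fix hp hu ha

theorem alternatingGroup_le_kpr (G : Subgroup (Perm α)) (hp : p.Prime)
    (hn : Fintype.card α = k * p + r) (hk : 1 ≤ k) (hpk : k < p) (hrk : k < r)
    (hex : ¬ (k = 1 ∧ r = 2)) (hG : IsMultiplyPretransitive G α (r + 1)) :
    alternatingGroup α ≤ G := by
  classical
  haveI : Fact p.Prime := ⟨hp⟩
  obtain ⟨P, x, F⟩ := exists_frame G hp hn hk hpk hG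
  have hkp : p ≤ k * p := Nat.le_mul_of_pos_left p hk
  have hprim := isPreprimitive_of_multiply hG (by omega) (by have := hp.two_le; omega)
  by_cases hpc : ∃ π ∈ P, π.IsCycle ∧ π.support.card = p
  · obtain ⟨π, hπ, hc, hs⟩ := hpc
    refine CfsgLib.PermPrimes.alternatingGroup_le_of_primitive_pCycle G hprim hp ?_ hc hs (F.toLocal.le hπ)
    by_cases h1 : k = 1
    · subst h1; omega
    · have h2 : 2 * p ≤ k * p := Nat.mul_le_mul_right p (by omega)
      have := hp.two_le
      omega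
  push Not at hpc
  -- there are at least two orbits
  have hk2 : 2 ≤ k := by
    by_contra h
    have hk1 : k = 1 := by omega
    subst hk1
    obtain ⟨a, ha⟩ : ∃ a, a ∉ Set.range x := by
      by_contra hall
      push Not at hall
      have := Fintype.card_le_of_surjective x (fun a => hall a)
      rw [Fintype.card_fin, hn] at this
      have := hp.pos
      omega
    obtain ⟨z, hz, hzm⟩ := F.toLocal.exists_mover hp ha
    have hz1 : (z : Perm α) = 1 := F.toLocal.eq_one_of_single hp hpc hz ha fun b hb => by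
      by_cases hbx : b ∈ Set.range x
      · obtain ⟨i, rfl⟩ := hbx; exact F.toLocal.fix _ hz i
      · exfalso
        have hs : orbit P a ∪ orbit P b ⊆ (Set.range x)ᶜ := by
          rintro _ (⟨⟨π, hπ⟩, rfl⟩ | ⟨⟨π, hπ⟩, rfl⟩)
          · exact F.toLocal.apply_not_mem_range hp (Subgroup.le_normalizer hπ) ha
          · exact F.toLocal.apply_not_mem_range hp (Subgroup.le_normalizer hπ) hbx
        have h4 := Set.ncard_le_ncard hs (Set.toFinite _)
        have hd : _root_.Disjoint (orbit P a) (orbit P b) := Set.disjoint_left.2 fun c hca hcb =>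
          hb ((orbit_eq_iff.2 hcb).symm.trans (orbit_eq_iff.2 hca) ▸ mem_orbit_self b)
        rw [Set.ncard_union_eq hd,
          ← Nat.card_coe_set_eq, ← Nat.card_coe_set_eq, F.toLocal.orbit_card a ha, F.toLocal.orbit_card b hbx,
          Set.ncard_compl, Set.ncard_range_of_injective x.injective, Nat.card_fin,
          Nat.card_eq_fintype_card, hn] at h4
        have := hp.pos
        omega
    exact hzm (by rw [show z = 1 from Subtype.ext hz1, map_one])
  obtain ⟨σ, hσ1, hσ⟩ := F.exists_induced hp hk hrk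
  have hp3 : 3 ≤ p := by omega
  rcases (show r = 3 ∨ r = 4 ∨ 5 ≤ r by omega) with rfl | rfl | hr
  · have hk' : k = 2 := by omega
    by_cases hp' : p = 3
    · subst hp' hk'
      obtain ⟨a, ha⟩ : ∃ a, a ∉ Set.range x := by
        by_contra hall
        push Not at hall
        have := Fintype.card_le_of_surjective x (fun a => hall a)
        rw [Fintype.card_fin, hn] at this
        omega
      obtain ⟨z, hz, hzm⟩ := F.toLocal.exists_mover hp ha
      have hne : (z : Perm α) ≠ 1 := fun e => hzm (by rw [show z = 1 from Subtype.ext e, map_one])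
      have ho : orderOf (z : Perm α) = 3 := orderOf_eq_prime (F.toLocal.pow_eq_one hp hz) hne
      obtain ⟨n, hn'⟩ := cycleType_prime_order (σ := (z : Perm α)) (by rw [ho]; exact hp)
      rw [ho] at hn'
      have hsum : (z : Perm α).support.card = (n + 1) * 3 := by
        rw [← sum_cycleType, hn', Multiset.sum_replicate, smul_eq_mul]
      have hle : (z : Perm α).support.card ≤ 6 := by
        have hsub : (z : Perm α).support ⊆ (Finset.univ.map x)ᶜ := by
          intro b hb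
          rw [Finset.mem_compl, Finset.mem_map]
          rintro ⟨i, -, rfl⟩
          exact mem_support.1 hb (F.toLocal.fix _ hz i)
        refine (Finset.card_le_card hsub).trans ?_
        rw [Finset.card_compl, Finset.card_map, hn, Finset.card_univ, Fintype.card_fin]
      refine alternating_of_nine G hG hn (F.toLocal.le hz) ?_
      rcases (show n = 0 ∨ n = 1 by omega) with rfl | rfl
      · exact absurd (hsum.trans (by norm_num))
          (hpc _ hz (card_cycleType_eq_one.1 (by rw [hn', Multiset.card_replicate])))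
      · rw [hn']; rfl
    · obtain ⟨τ, hτ⟩ := fin_three_comm σ hσ1
      set ρ := τ * σ * τ⁻¹ * σ⁻¹
      have h3 : IsThreeCycle ρ := card_support_eq_three_iff.1 hτ
      obtain ⟨f, hf, hft⟩ := F.exists_supported hp (F.induced_comm hp hpc (by omega) hσ τ)
      refine alternatingGroup_le_of_isPreprimitive_of_isThreeCycle_mem hprim
        (card_support_eq_three_iff.1 ?_) hf
      rw [← sum_cycleType, hft, sum_cycleType, support_pow_coprime, hτ]
      rw [h3.orderOf]
      exact (Nat.coprime_primes hp Nat.prime_three).2 hp'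
  · have hk3 : k ≤ 3 := by omega
    obtain ⟨τ, hτ⟩ := fin_four_comm σ hσ1
    have hρ : ∃ ρ, Induced (cent G P x) x ρ ∧ ρ.support.card = 4 ∧ ρ ^ 2 = 1 := by
      have h := F.induced_comm hp hpc hk3 hσ τ
      rcases hτ with h3 | h4
      · obtain ⟨τ', h'⟩ := fin_four_three _ h3
        obtain ⟨u, hu, hux⟩ := h
        exact ⟨_, F.induced_comm hp hpc hk3 ⟨u, hu.1, hux⟩ τ', h'⟩
      · exact ⟨_, h, h4⟩
    obtain ⟨ρ, hρ, hρ4, hρ2⟩ := hρ
    obtain ⟨f, hf, hft⟩ := F.exists_supported hp hρ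
    obtain ⟨m, hm⟩ := (hp.odd_of_ne_two (by omega))
    have hρp : ρ ^ p = ρ := by rw [hm, pow_succ, pow_mul, hρ2, one_pow, one_mul]
    rw [hρp] at hft
    haveI := hG
    refine alternating_of_four_involution G
      (MulAction.isMultiplyPretransitive_of_le (n := 4 + 1) (by norm_num)
        (by rw [Nat.card_eq_fintype_card]; omega)) (by omega) hf
      (by rw [← sum_cycleType, hft, sum_cycleType, hρ4]) ?_
    rw [← orderOf_dvd_iff_pow_eq_one, ← lcm_cycleType, hft, lcm_cycleType, orderOf_dvd_iff_pow_eq_one, hρ2]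
  · set M := inducedGroup (core G P x) x with hM
    haveI : M.Normal := by
      refine ⟨fun u hu g₀ => ?_⟩
      obtain ⟨v, hv, hvx⟩ := hu
      obtain ⟨g, hgG, hgN, hgx⟩ := F.sym g₀
      refine ⟨g * v * g⁻¹, F.toLocal.conj_mem_core hp hgG hgN hv, fun i => ?_⟩
      have e1 : g⁻¹ (x i) = x (g₀⁻¹ i) := by rw [Equiv.Perm.coe_inv, Equiv.symm_apply_eq, hgx]; simp
      simp only [Perm.mul_apply, e1, hvx, hgx]
    have hA : alternatingGroup (Fin r) ≤ M := Equiv.Perm.alternatingGroup_le_of_normal (by simp [hr])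
      ((Subgroup.nontrivial_iff_exists_ne_one M).2 ⟨σ, hσ, hσ1⟩)
    set φ : Perm (Fin 5) →* Perm (Fin r) := viaEmbeddingHom (Fin.castLEEmb hr)
    have hMc : ∀ a b c, b ≠ a → c ≠ a → Induced (core G P x) x (φ (cyc5 a b c)) := fun a b c hb hc => by
      refine hA (mem_alternatingGroup.2 ?_)
      refine Eq.trans (congrArg sign (show φ (cyc5 a b c) =
          (cyc5 a b c).extendDomain (Equiv.ofInjective (Fin.castLEEmb hr) (Fin.castLEEmb hr).injective) from
        Equiv.ext fun i => ?_)) ((Equiv.Perm.sign_extendDomain _ _).trans ?_)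
      · by_cases hi : i ∈ Set.range (Fin.castLEEmb hr)
        · obtain ⟨j, rfl⟩ := hi
          exact (viaEmbedding_apply (cyc5 a b c) _ j).trans
            (extendDomain_apply_image (cyc5 a b c) (Equiv.ofInjective _ (Fin.castLEEmb hr).injective) j).symm
        · exact (viaEmbedding_apply_of_notMem (cyc5 a b c) _ i hi).trans
            (extendDomain_apply_not_subtype (cyc5 a b c) _ hi).symm
      rw [cyc5, Equiv.Perm.sign_mul, sign_swap hb.symm, sign_swap hc.symm]
      decide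
    have comm : ∀ {s t}, Induced (core G P x) x (φ s) → Induced (core G P x) x (φ t) →
        Induced (cent G P x) x (φ (s * t * s⁻¹ * t⁻¹)) := fun {s t} hs ht => by
      obtain ⟨u, hu, hux⟩ := hs
      obtain ⟨v, hv, hvx⟩ := ht
      refine ⟨_, F.toLocal.comm_mem_cent hp hu hv, fun i => ?_⟩
      have e1 : ∀ l, u⁻¹ (x l) = x ((φ s)⁻¹ l) := fun l => by
        rw [Equiv.Perm.coe_inv, Equiv.symm_apply_eq, hux]; simp
      have e2 : ∀ l, v⁻¹ (x l) = x ((φ t)⁻¹ l) := fun l => by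
        rw [Equiv.Perm.coe_inv, Equiv.symm_apply_eq, hvx]; simp
      simp only [map_mul, map_inv, Perm.mul_apply, e1, e2, hux, hvx]
    obtain ⟨u, hu, hux⟩ := comm (hMc 0 1 2 (by decide) (by decide)) (hMc 0 3 4 (by decide) (by decide))
    obtain ⟨v, hv, hvx⟩ := comm (hMc 1 2 3 (by decide) (by decide)) (hMc 1 0 4 (by decide) (by decide))
    have h3 := fin_five_comm
    simp only [commutatorElement_def] at h3
    refine alternatingGroup_le_of_isPreprimitive_of_isThreeCycle_mem hprim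
      (card_support_eq_three_iff.1 ?_)
      (G.mul_mem (G.mul_mem (G.mul_mem hu.1.1 hv.1.1) (G.inv_mem hu.1.1)) (G.inv_mem hv.1.1))
    refine (support_card_eq_of_apply ((Fin.castLEEmb hr).trans x)
      (σ := (cyc5 0 1 2 * cyc5 0 3 4 * (cyc5 0 1 2)⁻¹ * (cyc5 0 3 4)⁻¹) *
        (cyc5 1 2 3 * cyc5 1 0 4 * (cyc5 1 2 3)⁻¹ * (cyc5 1 0 4)⁻¹) *
        (cyc5 0 1 2 * cyc5 0 3 4 * (cyc5 0 1 2)⁻¹ * (cyc5 0 3 4)⁻¹)⁻¹ *
        (cyc5 1 2 3 * cyc5 1 0 4 * (cyc5 1 2 3)⁻¹ * (cyc5 1 0 4)⁻¹)⁻¹) ?_ ?_).trans h3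
    · intro i
      have ev : ∀ (t : Perm (Fin 5)) (j : Fin 5), φ t (Fin.castLEEmb hr j) = Fin.castLEEmb hr (t j) :=
        fun t j => viaEmbedding_apply t _ j
      have eu : ∀ l, u⁻¹ (x l) = x ((φ (cyc5 0 1 2 * cyc5 0 3 4 * (cyc5 0 1 2)⁻¹ * (cyc5 0 3 4)⁻¹))⁻¹ l) :=
        fun l => by rw [Equiv.Perm.coe_inv, Equiv.symm_apply_eq, hux]; simp
      have evv : ∀ l, v⁻¹ (x l) = x ((φ (cyc5 1 2 3 * cyc5 1 0 4 * (cyc5 1 2 3)⁻¹ * (cyc5 1 0 4)⁻¹))⁻¹ l) :=
        fun l => by rw [Equiv.Perm.coe_inv, Equiv.symm_apply_eq, hvx]; simp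
      simp only [Function.Embedding.trans_apply, Perm.mul_apply, eu, evv, hux, hvx, ← map_inv, ev]
    · intro a ha
      by_cases hb : a ∈ Set.range x
      · obtain ⟨i, rfl⟩ := hb
        have hi : i ∉ Set.range (Fin.castLEEmb hr) := fun ⟨j, hj⟩ => ha ⟨j, by simp [hj]⟩
        have ev : ∀ t : Perm (Fin 5), φ t i = i := fun t => viaEmbedding_apply_of_notMem t _ i hi
        have e1 : u (x i) = x i := by rw [hux, ev]
        have e2 : v (x i) = x i := by rw [hvx, ev]
        simp only [Perm.mul_apply]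
        rw [show v⁻¹ (x i) = x i by rw [Equiv.Perm.coe_inv, Equiv.symm_apply_eq, e2],
          show u⁻¹ (x i) = x i by rw [Equiv.Perm.coe_inv, Equiv.symm_apply_eq, e1], e2, e1]
      · exact F.toLocal.comm_fix hp hu hv hb

end CfsgLib.PermPrimes.KPR
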